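/-
Counting vectors of the lattice by norm (helper16): generating functions evaluated at powers of two.
-/
import Cfsg.Agent.Lib.Golay.Leech
import Cfsg.Agent.Lib.Golay.Words

set_option autoImplicit false
set_option linter.unusedSectionVars false

namespace Cfsg.Agent.Lib.Golay.Leech

open Cfsg Cfsg.Agent.Lib.Golay

/-- Bits of a digit. -/
def KK : ℕ := 56
/-- The multiplier of the norm in the exponent. -/
def DD : ℕ := 169
/-- The base of the generating function. -/
def BB : ℕ := 2 ^ 56

/-- The exponent of a coordinate value. -/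
def encA (a : ℤ) : ℕ := (a ^ 2).toNat * DD + (a % 8).toNat

/-- The coordinate values of a class. -/
def classA (r : ℕ) (β : Bool) : Finset ℤ :=
  ((List.range 17).map (fun k : ℕ => (k : ℤ) - 8)).toFinset.filter
    (fun a => a % 4 = (r : ℤ) + (if β then 2 else 0))

/-- The generating function of a class. -/
def pv (r : ℕ) (β : Bool) : ℕ := ∑ a ∈ classA r β, BB ^ encA a

/-- Explicit form of the generating function of a class. -/
def pvv : ℕ → Bool → ℕ
  | 0, false => 2 * BB ^ 10816 + 2 * BB ^ 2708 + 1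
  | 0, true => BB ^ 6086 + BB ^ 682 + BB ^ 678 + BB ^ 6090
  | _ + 1, false => BB ^ 8282 + BB ^ 1526 + BB ^ 170 + BB ^ 4230
  | _ + 1, true => BB ^ 4228 + BB ^ 176 + BB ^ 1524 + BB ^ 8288

theorem pv_eq00 : pv 0 false = pvv 0 false := by decide +kernel
theorem pv_eq01 : pv 0 true = pvv 0 true := by decide +kernel
theorem pv_eq10 : pv 1 false = pvv 1 false := by decide +kernel
theorem pv_eq11 : pv 1 true = pvv 1 true := by decide +kernel

theorem classA_card_le : ∀ (r : Fin 2) (β : Bool), (classA r β).card ≤ 5 := by decide +kernel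

theorem classA_enc_le : ∀ (r : Fin 2) (β : Bool), ∀ a ∈ classA r β, encA a ≤ 10823 := by decide +kernel

/-- The number of vectors of a residue class, computed from the generating function. -/
def cnt (r w N : ℕ) : ℕ :=
  (fun V => ∑ s ∈ (Finset.range DD).filter (fun s => s % 8 = (4 * r) % 8), (V / BB ^ (DD * N + s)) % BB)
    (pvv r true ^ w * pvv r false ^ (24 - w))

/-- Digit extraction. -/
theorem digit_range (B : ℕ) (hB : 0 < B) (c : ℕ → ℕ) (hc : ∀ e, c e < B) (n e0 : ℕ) (h : e0 < n) :
    (∑ e ∈ Finset.range n, c e * B ^ e) / B ^ e0 % B = c e0 := by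
  induction e0 generalizing c n with
  | zero =>
    obtain ⟨m, rfl⟩ : ∃ m, n = m + 1 := ⟨n - 1, by omega⟩
    rw [Finset.sum_range_succ']
    simp only [pow_zero, mul_one, Nat.div_one]
    have : ∑ k ∈ Finset.range m, c (k + 1) * B ^ (k + 1) = B * ∑ k ∈ Finset.range m, c (k + 1) * B ^ k := by
      rw [Finset.mul_sum]
      apply Finset.sum_congr rfl
      intro k _
      ring
    rw [this, Nat.mul_add_mod]
    exact Nat.mod_eq_of_lt (hc 0)
  | succ e0 ih =>
    obtain ⟨m, rfl⟩ : ∃ m, n = m + 1 := ⟨n - 1, by omega⟩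
    rw [Finset.sum_range_succ']
    simp only [pow_zero, mul_one]
    have h1 : ∑ k ∈ Finset.range m, c (k + 1) * B ^ (k + 1) = B * ∑ k ∈ Finset.range m, c (k + 1) * B ^ k := by
      rw [Finset.mul_sum]
      apply Finset.sum_congr rfl
      intro k _
      ring
    rw [h1, pow_succ', ← Nat.div_div_eq_div_mul, Nat.mul_add_div hB, Nat.div_eq_of_lt (hc 0), add_zero]
    exact ih (fun e => c (e + 1)) (fun e => hc _) m (by omega)

variable {r : ℕ} (β : GolayPt → Bool)

/-- The functions with coordinates in the prescribed classes. -/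
def piA (r : ℕ) (β : GolayPt → Bool) : Finset (GolayPt → ℤ) :=
  Fintype.piFinset fun i => classA r (β i)

/-- The total exponent. -/
def EE (f : GolayPt → ℤ) : ℕ := ∑ i, encA (f i)

/-- The coefficient. -/
def CC (r : ℕ) (β : GolayPt → Bool) (e : ℕ) : ℕ := ((piA r β).filter (fun f => EE f = e)).card

theorem prod_eq_sum_digits (hr : r < 2) :
    ∏ i, pv r (β i) = ∑ e ∈ Finset.range 259753, CC r β e * BB ^ e := by
  have h1 : ∏ i, pv r (β i) = ∑ f ∈ piA r β, BB ^ EE f := by
    simp only [pv]
    rw [Finset.prod_univ_sum]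
    apply Finset.sum_congr rfl
    intro f _
    rw [Finset.prod_pow_eq_pow_sum]
    rfl
  rw [h1]
  have hmaps : ∀ f ∈ piA r β, EE f ∈ Finset.range 259753 := by
    intro f hf
    rw [Finset.mem_range]
    have h2 : EE f ≤ ∑ _i : GolayPt, 10823 := by
      apply Finset.sum_le_sum
      intro i _
      have := (Fintype.mem_piFinset.mp hf) i
      exact classA_enc_le ⟨r, hr⟩ (β i) _ this
    have h3 : ∑ _i : GolayPt, 10823 = 259752 := by
      rw [Finset.sum_const, Finset.card_univ, card_golayPt]
      rfl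
    omega
  rw [← Finset.sum_fiberwise_of_maps_to hmaps]
  apply Finset.sum_congr rfl
  intro e _
  have : ∀ f ∈ (piA r β).filter (fun f => EE f = e), BB ^ EE f = BB ^ e := by
    intro f hf
    rw [(Finset.mem_filter.mp hf).2]
  rw [Finset.sum_congr rfl this, Finset.sum_const, smul_eq_mul]
  rfl

theorem CC_lt (hr : r < 2) (e : ℕ) : CC r β e < BB := by
  have h1 : CC r β e ≤ (piA r β).card := Finset.card_filter_le _ _
  have h2 : (piA r β).card ≤ 5 ^ 24 := by
    rw [piA, Fintype.card_piFinset]
    calc ∏ i, (classA r (β i)).card ≤ ∏ _i : GolayPt, 5 := by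
          apply Finset.prod_le_prod' 
          intro i _
          exact classA_card_le ⟨r, hr⟩ (β i)
      _ = 5 ^ 24 := by rw [Finset.prod_const, Finset.card_univ, card_golayPt]
  have h3 : 5 ^ 24 < BB := by decide +kernel
  omega

theorem CC_eq (hr : r < 2) (e : ℕ) (he : e < 259753) :
    CC r β e = (∏ i, pv r (β i)) / BB ^ e % BB := by
  rw [prod_eq_sum_digits β hr, digit_range BB (by decide +kernel) _ (CC_lt β hr) _ _ he]

/-- The sum of squares, as a natural number. -/
def sqN (f : GolayPt → ℤ) : ℕ := ∑ i, (f i ^ 2).toNat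

/-- The sum of residues modulo eight. -/
def resN (f : GolayPt → ℤ) : ℕ := ∑ i, (f i % 8).toNat

theorem EE_eq (f : GolayPt → ℤ) : EE f = sqN f * DD + resN f := by
  rw [EE, sqN, resN, Finset.sum_mul, ← Finset.sum_add_distrib]
  rfl

theorem resN_lt (f : GolayPt → ℤ) : resN f ≤ 168 := by
  have h2 : resN f ≤ ∑ _i : GolayPt, 7 := by
    apply Finset.sum_le_sum
    intro i _
    omega
  have h3 : ∑ _i : GolayPt, 7 = 168 := by
    rw [Finset.sum_const, Finset.card_univ, card_golayPt]
    rfl
  omega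

theorem sqN_cast (f : GolayPt → ℤ) : ((sqN f : ℕ) : ℤ) = sqNorm f := by
  rw [sqN, sqNorm, Nat.cast_sum]
  apply Finset.sum_congr rfl
  intro i _
  exact Int.toNat_of_nonneg (by positivity)

theorem resN_mod (f : GolayPt → ℤ) : ((resN f : ℕ) : ℤ) % 8 = (∑ i, f i) % 8 := by
  rw [resN, Nat.cast_sum, Finset.sum_int_mod (Finset.univ) 8 (fun i => f i)]
  congr 1
  apply Finset.sum_congr rfl
  intro i _
  exact Int.toNat_of_nonneg (by omega)

/-- The vectors in a class with given norm. -/
def Gset (r : ℕ) (β : GolayPt → Bool) (N : ℕ) : Finset (GolayPt → ℤ) :=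
  (piA r β).filter (fun f => sqN f = N ∧ resN f % 8 = (4 * r) % 8)

theorem Gset_card (hr : r < 2) (N : ℕ) (hN : N ≤ 1536) :
    (Gset r β N).card = ∑ s ∈ (Finset.range DD).filter (fun s => s % 8 = (4 * r) % 8),
      ((∏ i, pv r (β i)) / BB ^ (DD * N + s)) % BB := by
  have hmaps : ∀ f ∈ Gset r β N, resN f ∈ (Finset.range DD).filter (fun s => s % 8 = (4 * r) % 8) := by
    intro f hf
    have h1 := (Finset.mem_filter.mp hf).2.2
    have h2 := resN_lt f
    refine Finset.mem_filter.mpr ⟨Finset.mem_range.mpr ?_, h1⟩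
    show resN f < 169
    omega
  rw [Finset.card_eq_sum_card_fiberwise hmaps]
  apply Finset.sum_congr rfl
  intro s hs
  obtain ⟨hs1, hs2⟩ := Finset.mem_filter.mp hs
  have hs3 : s < 169 := Finset.mem_range.mp hs1
  have hfib : (Gset r β N).filter (fun f => resN f = s)
      = (piA r β).filter (fun f => EE f = DD * N + s) := by
    ext f
    rw [Finset.mem_filter, Finset.mem_filter, Gset, Finset.mem_filter, EE_eq]
    have hDD : DD = 169 := rfl
    rw [hDD]
    have h2 := resN_lt f
    constructor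
    · rintro ⟨⟨h3, h4, h5⟩, h6⟩
      refine ⟨h3, ?_⟩
      rw [h4, h6]
      ring
    · rintro ⟨h3, h4⟩
      have h5 : sqN f = N := by omega
      have h6 : resN f = s := by omega
      refine ⟨⟨h3, h5, ?_⟩, h6⟩
      rw [h6]
      exact hs2
  have hlt : DD * N + s < 259753 := by
    have hDD : DD = 169 := rfl
    rw [hDD]
    omega
  have hCC := CC_eq β hr (DD * N + s) hlt
  rw [hfib]
  exact hCC

theorem prod_pv_eq (hr : r < 2) (c : ℕ) (hc : c < 2 ^ 24) :
    ∏ i, pv r (c.testBit (idx i)) = pvv r true ^ pop c * pvv r false ^ (24 - pop c) := by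
  have h1 : ∀ i : GolayPt, pv r (c.testBit (idx i))
      = if c.testBit (idx i) = true then pvv r true else pvv r false := by
    intro i
    have h2 : ∀ β, pv r β = pvv r β := by
      intro β
      interval_cases r <;> cases β
      · exact pv_eq00
      · exact pv_eq01
      · exact pv_eq10
      · exact pv_eq11
    rw [h2]
    cases c.testBit (idx i) <;> simp
  simp only [h1]
  rw [Finset.prod_ite, Finset.prod_const, Finset.prod_const]
  congr 2
  · have := card_finOf hc
    rw [← this]
    rfl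
  · have h3 := card_finOf hc
    have h4 : (Finset.univ.filter fun i : GolayPt => c.testBit (idx i) = true).card = pop c := h3
    have h5 := Finset.card_filter_add_card_filter_not (s := (Finset.univ : Finset GolayPt))
      (fun i : GolayPt => c.testBit (idx i) = true)
    rw [Finset.card_univ, card_golayPt, h4] at h5
    omega

theorem Gset_card' (hr : r < 2) (N : ℕ) (hN : N ≤ 1536) (c : ℕ) (hc : c < 2 ^ 24) :
    (Gset r (fun i => c.testBit (idx i)) N).card = cnt r (pop c) N := by
  rw [Gset_card _ hr N hN, prod_pv_eq hr c hc]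
  rfl

/-! ### The lattice as a union of classes -/

theorem mem_classA {r : ℕ} {β : Bool} {a : ℤ} :
    a ∈ classA r β ↔ (-8 ≤ a ∧ a ≤ 8) ∧ a % 4 = (r : ℤ) + (if β then 2 else 0) := by
  simp only [classA, Finset.mem_filter, List.mem_toFinset, List.mem_map, List.mem_range]
  constructor
  · rintro ⟨⟨k, hk, rfl⟩, h⟩
    exact ⟨by omega, h⟩
  · rintro ⟨⟨h1, h2⟩, h⟩
    exact ⟨⟨(a + 8).toNat, by omega, by omega⟩, h⟩

theorem wordOf_comb_code {c : ℕ} (hc : c ∈ codeL) : wordOf c ∈ golayCode := by
  obtain ⟨d, hd, rfl⟩ := mem_codeL.mp hc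
  exact wordOf_comb_mem d

theorem coord_le {x : GolayPt → ℤ} {N : ℕ} (hN : N ≤ 64) (h : sqNorm x = N) (i : GolayPt) :
    -8 ≤ x i ∧ x i ≤ 8 := by
  have h1 : x i ^ 2 ≤ sqNorm x := by
    rw [sqNorm]
    exact Finset.single_le_sum (f := fun i => x i ^ 2) (fun i _ => by positivity) (Finset.mem_univ i)
  rw [h] at h1
  have h2 : x i ^ 2 ≤ 64 := by
    have : (N : ℤ) ≤ 64 := by exact_mod_cast hN
    omega
  constructor <;> nlinarith

theorem mem_lattice_norm {x : GolayPt → ℤ} {N : ℕ} (hN : N ≤ 64) :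
    (x ∈ leechLattice ∧ sqNorm x = N) ↔
      ∃ r : Fin 2, ∃ c ∈ codeL, x ∈ Gset r (fun i => c.testBit (idx i)) N := by
  constructor
  · rintro ⟨hx, hn⟩
    rw [mem_leechLattice_iff] at hx
    have key : ∀ r : Fin 2, LS (r : ℕ) x → ∃ c ∈ codeL, x ∈ Gset r (fun i => c.testBit (idx i)) N := by
      rintro r ⟨h1, h2, h3⟩
      obtain ⟨d, hd, hde⟩ := (mem_golayCode_iff _).mp h3
      refine ⟨comb d, mem_codeL.mpr ⟨d, hd, rfl⟩, Finset.mem_filter.mpr ⟨?_, ?_, ?_⟩⟩
      · rw [piA, Fintype.mem_piFinset]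
        intro i
        rw [mem_classA]
        refine ⟨coord_le hN hn i, ?_⟩
        have h4 := congrFun hde i
        rw [wordOf_apply] at h4
        have h5 := h1 i
        have hr : ((r : ℕ) : ℤ) = 0 ∨ ((r : ℕ) : ℤ) = 1 := by
          have := r.2
          omega
        by_cases hb : (comb d).testBit (idx i) = true
        · rw [if_pos hb] at h4
          have h6 := (cast_eq_one_iff _).mp h4
          rw [if_pos hb]
          omega
        · rw [if_neg hb] at h4
          have h6 := (cast_eq_zero_iff _).mp h4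
          rw [if_neg hb]
          omega
      · have : ((sqN x : ℕ) : ℤ) = (N : ℤ) := by rw [sqN_cast, hn]
        exact_mod_cast this
      · have h6 := resN_mod x
        rw [h2] at h6
        have h7 : ((resN x % 8 : ℕ) : ℤ) = (((4 * (r : ℕ)) % 8 : ℕ) : ℤ) := by
          push_cast
          exact h6
        exact_mod_cast h7
    have hr0 : LS (((0 : Fin 2) : ℕ) : ℤ) x ∨ LS (((1 : Fin 2) : ℕ) : ℤ) x := hx
    rcases hr0 with h | h
    · exact ⟨0, key 0 h⟩
    · exact ⟨1, key 1 h⟩
  · rintro ⟨r, c, hc, hx⟩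
    obtain ⟨hx1, hx2, hx3⟩ := Finset.mem_filter.mp hx
    rw [piA, Fintype.mem_piFinset] at hx1
    have hr : ((r : ℕ) : ℤ) = 0 ∨ ((r : ℕ) : ℤ) = 1 := by
      have := r.2
      omega
    have hLS : LS (r : ℕ) x := by
      refine ⟨fun i => ?_, ?_, ?_⟩
      · have h1 := (mem_classA.mp (hx1 i)).2
        split_ifs at h1 <;> omega
      · rw [← resN_mod]
        have h7 : ((resN x % 8 : ℕ) : ℤ) = (((4 * (r : ℕ)) % 8 : ℕ) : ℤ) := by rw [hx3]
        push_cast at h7
        exact h7
      · have : bitv x = wordOf c := by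
          funext i
          rw [wordOf_apply]
          have h1 := (mem_classA.mp (hx1 i)).2
          rw [bitv]
          split_ifs with hb
          · rw [if_pos hb] at h1
            rw [cast_eq_one_iff]
            omega
          · rw [if_neg hb] at h1
            rw [cast_eq_zero_iff]
            omega
        rw [this]
        exact wordOf_comb_code hc
    refine ⟨mem_leechLattice_iff.mpr ?_, ?_⟩
    · rcases hr with h | h
      · left
        rwa [h] at hLS
      · right
        rwa [h] at hLS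
    · rw [← sqN_cast, hx2]

theorem Gset_disjoint {r r' : Fin 2} {c c' : ℕ} (hc : c ∈ codeL) (hc' : c' ∈ codeL) (N : ℕ)
    {x : GolayPt → ℤ} (h : x ∈ Gset r (fun i => c.testBit (idx i)) N)
    (h' : x ∈ Gset r' (fun i => c'.testBit (idx i)) N) : r = r' ∧ c = c' := by
  obtain ⟨hx1, -⟩ := Finset.mem_filter.mp h
  obtain ⟨hy1, -⟩ := Finset.mem_filter.mp h'
  rw [piA, Fintype.mem_piFinset] at hx1 hy1
  have hrr : r = r' := by
    have h1 := (mem_classA.mp (hx1 none)).2
    have h2 := (mem_classA.mp (hy1 none)).2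
    have h3 := r.2
    have h4 := r'.2
    apply Fin.ext
    split_ifs at h1 h2 <;> omega
  refine ⟨hrr, ?_⟩
  subst hrr
  apply finOf_injOn (codeL_lt hc) (codeL_lt hc')
  ext p
  rw [mem_finOf, mem_finOf]
  have h1 := (mem_classA.mp (hx1 p)).2
  have h2 := (mem_classA.mp (hy1 p)).2
  by_cases hb : c.testBit (idx p) = true <;> by_cases hb' : c'.testBit (idx p) = true
  · simp [hb, hb']
  · rw [if_pos hb] at h1
    rw [if_neg hb'] at h2
    omega
  · rw [if_neg hb] at h1
    rw [if_pos hb'] at h2
    omega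
  · simp [hb, hb']

/-- The number of lattice vectors of a given norm. -/
theorem ncard_norm (N : ℕ) (hN : N ≤ 64) :
    {x : GolayPt → ℤ | x ∈ leechLattice ∧ sqNorm x = N}.ncard
      = (codeL.map fun c => cnt 0 (pop c) N + cnt 1 (pop c) N).sum := by
  classical
  have hset : {x : GolayPt → ℤ | x ∈ leechLattice ∧ sqNorm x = N}
      = ↑((Finset.univ ×ˢ codeL.toFinset).biUnion
        (fun p : Fin 2 × ℕ => Gset p.1 (fun i => p.2.testBit (idx i)) N)) := by
    ext x
    simp only [Set.mem_ofPred_eq, Finset.coe_biUnion, Set.mem_iUnion, Finset.mem_coe, exists_prop,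
      Finset.mem_product, Finset.mem_univ, true_and, List.mem_toFinset, Prod.exists]
    rw [mem_lattice_norm hN]
  rw [hset, Set.ncard_coe_finset, Finset.card_biUnion]
  · rw [Finset.sum_product, Fin.sum_univ_two]
    have hnd : codeL.Nodup := codeL_nodup
    have e : ∀ r : Fin 2, ∑ c ∈ codeL.toFinset, (Gset r (fun i => c.testBit (idx i)) N).card
        = ∑ c ∈ codeL.toFinset, cnt r (pop c) N := by
      intro r
      apply Finset.sum_congr rfl
      intro c hc
      exact Gset_card' r.2 N (by omega) c (codeL_lt (List.mem_toFinset.mp hc))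
    simp only []
    rw [e 0, e 1, ← Finset.sum_add_distrib, List.sum_toFinset _ hnd]
    rfl
  · rintro ⟨r, c⟩ hp ⟨r', c'⟩ hp' hne
    rw [Function.onFun, Finset.disjoint_left]
    intro x hx hx'
    have hc := List.mem_toFinset.mp (Finset.mem_product.mp hp).2
    have hc' := List.mem_toFinset.mp (Finset.mem_product.mp hp').2
    obtain ⟨h1, h2⟩ := Gset_disjoint hc hc' N hx hx'
    exact hne (Prod.ext h1 h2)

theorem table_sum (N : ℕ) (T : ℕ → ℕ) (hT : ∀ w ∈ [0, 8, 12, 16, 24], cnt 0 w N + cnt 1 w N = T w) :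
    (codeL.map fun c => cnt 0 (pop c) N + cnt 1 (pop c) N).sum = (codeL.map fun c => T (pop c)).sum := by
  have h : ∀ c ∈ codeL, cnt 0 (pop c) N + cnt 1 (pop c) N = T (pop c) := by
    intro c hc
    apply hT
    rcases pop_of_mem_codeL hc with h | h | h | h | h <;> rw [h] <;> simp
  rw [List.map_congr_left h]

/-- The number of vectors of norm 32 over a word of given weight. -/
def tab32 : ℕ → ℕ
  | 0 => 1128
  | 8 => 152
  | 12 => 24
  | 16 => 24
  | _ => 24

theorem tab32_eq : ∀ w ∈ [0, 8, 12, 16, 24], cnt 0 w 32 + cnt 1 w 32 = tab32 w := by decide +kernel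

theorem ncard_norm32 : {x : GolayPt → ℤ | x ∈ leechLattice ∧ sqNorm x = 32}.ncard = 196560 := by
  have h := ncard_norm 32 (by norm_num)
  rw [Nat.cast_ofNat] at h
  rw [h, table_sum _ _ tab32_eq]
  decide +kernel

/-- The number of vectors of norm 48 over a word of given weight. -/
def tab48 : ℕ → ℕ
  | 0 => 2048
  | 8 => 6144
  | 12 => 4096
  | 16 => 2048
  | _ => 2048

theorem tab48_eq : ∀ w ∈ [0, 8, 12, 16, 24], cnt 0 w 48 + cnt 1 w 48 = tab48 w := by decide +kernel

theorem ncard_norm48 : {x : GolayPt → ℤ | x ∈ leechLattice ∧ sqNorm x = 48}.ncard = 16773120 := by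
  have h := ncard_norm 48 (by norm_num)
  rw [Nat.cast_ofNat] at h
  rw [h, table_sum _ _ tab48_eq]
  decide +kernel

/-- The number of vectors of norm 64 over a word of given weight. -/
def tab64 : ℕ → ℕ
  | 0 => 218640
  | 8 => 111040
  | 12 => 97728
  | 16 => 81344
  | _ => 48576

theorem tab64_eq : ∀ w ∈ [0, 8, 12, 16, 24], cnt 0 w 64 + cnt 1 w 64 = tab64 w := by decide +kernel

theorem ncard_norm64 : {x : GolayPt → ℤ | x ∈ leechLattice ∧ sqNorm x = 64}.ncard = 398034000 := by
  have h := ncard_norm 64 (by norm_num)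
  rw [Nat.cast_ofNat] at h
  rw [h, table_sum _ _ tab64_eq]
  decide +kernel

end Cfsg.Agent.Lib.Golay.Leech
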