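/-
The graphs attached to a Steiner system `S(3,6,22)` are strongly regular (helper16).
-/
import Cfsg.Agent.Lib.Golay.Steiner

set_option autoImplicit false
set_option linter.unusedSectionVars false

namespace Cfsg.Agent.Lib.Golay.Steiner

open Finset Cfsg

variable {α : Type*} [Fintype α] [DecidableEq α] {B : Set (Finset α)}

section counts

variable (hα : Fintype.card α = 22) (hB : IsSteinerSystem 3 6 B)
include hα hB

theorem lam0_3_6_22 : (BF B).card = 77 := by
  have := blocks_through_eq hB (∅ : Finset α) (by simp) 77 (by rw [Finset.card_empty]; decide)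
    (by rw [hα, Finset.card_empty]; decide)
  simpa using this

theorem lam1_3_6_22 (p : α) : ((BF B).filter (fun d => p ∈ d)).card = 21 := by
  have := blocks_through_eq hB ({p} : Finset α) (by simp) 21 (by simp; decide) (by rw [hα]; simp; decide)
  simpa using this

theorem lam2_3_6_22 (p q : α) (hpq : p ≠ q) : ((BF B).filter (fun d => p ∈ d ∧ q ∈ d)).card = 5 := by
  have hc : ({p, q} : Finset α).card = 2 := Finset.card_pair hpq
  have := blocks_through_eq hB ({p, q} : Finset α) (by rw [hc]; norm_num) 5 (by rw [hc]; decide)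
    (by rw [hc, hα]; decide)
  have h2 : (BF B).filter (fun d => p ∈ d ∧ q ∈ d) = (BF B).filter (fun d => {p, q} ⊆ d) := by
    ext d
    simp [Finset.insert_subset_iff]
  rw [h2, this]

omit hα hB in
theorem card_inter_eq_sum (d b : Finset α) : ((d ∩ b).card : ℤ) = ∑ p ∈ b, if p ∈ d then 1 else 0 := by
  have : d ∩ b = b.filter (fun p => p ∈ d) := by
    ext x
    simp [and_comm]
  rw [this, Finset.card_filter]
  push_cast
  rfl

theorem sum_inter1 (b : Finset α) : ∑ d ∈ BF B, ((d ∩ b).card : ℤ) = 21 * b.card := by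
  simp only [card_inter_eq_sum]
  rw [Finset.sum_comm]
  have : ∀ p ∈ b, ∑ d ∈ BF B, (if p ∈ d then (1 : ℤ) else 0) = 21 := by
    intro p _
    rw [← Finset.natCast_card_filter, lam1_3_6_22 hα hB]
    rfl
  rw [Finset.sum_congr rfl this, Finset.sum_const, nsmul_eq_mul]
  ring

theorem sum_inter2 (b c : Finset α) :
    ∑ d ∈ BF B, ((d ∩ b).card : ℤ) * ((d ∩ c).card : ℤ) = 5 * b.card * c.card + 16 * (b ∩ c).card := by
  have h0 : ∀ d ∈ BF B, ((d ∩ b).card : ℤ) * ((d ∩ c).card : ℤ)
      = ∑ p ∈ b, ∑ q ∈ c, (if p ∈ d then (1 : ℤ) else 0) * (if q ∈ d then 1 else 0) := by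
    intro d _
    rw [card_inter_eq_sum, card_inter_eq_sum, Finset.sum_mul_sum]
  rw [Finset.sum_congr rfl h0, Finset.sum_comm]
  have h1 : ∀ p ∈ b, ∑ d ∈ BF B, ∑ q ∈ c, (if p ∈ d then (1 : ℤ) else 0) * (if q ∈ d then 1 else 0)
      = 5 * c.card + if p ∈ c then 16 else 0 := by
    intro p _
    rw [Finset.sum_comm]
    have h2 : ∀ q ∈ c, ∑ d ∈ BF B, (if p ∈ d then (1 : ℤ) else 0) * (if q ∈ d then 1 else 0)
        = 5 + if p = q then 16 else 0 := by
      intro q _
      have h3 : ∀ d ∈ BF B, (if p ∈ d then (1 : ℤ) else 0) * (if q ∈ d then 1 else 0)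
          = if p ∈ d ∧ q ∈ d then 1 else 0 := by
        intro d _
        by_cases h4 : p ∈ d <;> by_cases h5 : q ∈ d <;> simp [h4, h5]
      rw [Finset.sum_congr rfl h3, ← Finset.natCast_card_filter]
      by_cases hpq : p = q
      · subst hpq
        simp only [and_self, if_true]
        rw [lam1_3_6_22 hα hB]
        rfl
      · rw [lam2_3_6_22 hα hB p q hpq, if_neg hpq]
        rfl
    rw [Finset.sum_congr rfl h2, Finset.sum_add_distrib, Finset.sum_const, nsmul_eq_mul,
      Finset.sum_ite_eq]
    ring
  rw [Finset.sum_congr rfl h1, Finset.sum_add_distrib, Finset.sum_const, nsmul_eq_mul,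
    ← Finset.sum_filter, Finset.sum_const, nsmul_eq_mul]
  have h6 : b.filter (fun p => p ∈ c) = b ∩ c := by
    ext x
    simp
  rw [h6]
  ring

/-- The number of blocks disjoint from two blocks. -/
theorem card_disj_disj {b c : Finset α} (hb : b ∈ B) (hc : c ∈ B) (hbc : b ≠ c) :
    (4 : ℤ) * ((BF B).filter (fun d => Disjoint d b ∧ Disjoint d c)).card = 8 * (b ∩ c).card := by
  classical
  have hbB : b ∈ BF B := mem_BF.mpr hb
  have hcB : c ∈ BF B := mem_BF.mpr hc
  have hb6 := hB.1 b hb
  have hc6 := hB.1 c hc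
  set f : Finset α → ℤ := fun d => (2 - ((d ∩ b).card : ℤ)) * (2 - ((d ∩ c).card : ℤ)) with hf
  have hsum : ∑ d ∈ BF B, f d = 308 - 252 - 252 + (180 + 16 * (b ∩ c).card) := by
    have e : ∀ d ∈ BF B, f d = 4 - 2 * ((d ∩ b).card : ℤ) - 2 * ((d ∩ c).card : ℤ)
        + ((d ∩ b).card : ℤ) * ((d ∩ c).card : ℤ) := by
      intro d _
      simp only [hf]
      ring
    rw [Finset.sum_congr rfl e, Finset.sum_add_distrib, Finset.sum_sub_distrib,
      Finset.sum_sub_distrib, ← Finset.mul_sum, ← Finset.mul_sum, sum_inter1 hα hB, sum_inter1 hα hB,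
      sum_inter2 hα hB, Finset.sum_const, nsmul_eq_mul, lam0_3_6_22 hα hB, hb6, hc6]
    norm_num
  have hrest : ∑ d ∈ ((BF B).erase b).erase c, f d
      = 4 * ((BF B).filter (fun d => Disjoint d b ∧ Disjoint d c)).card := by
    have h1 : (BF B).filter (fun d => Disjoint d b ∧ Disjoint d c)
        = (((BF B).erase b).erase c).filter (fun d => Disjoint d b ∧ Disjoint d c) := by
      ext d
      simp only [mem_filter, mem_erase]
      constructor
      · rintro ⟨h1, h2, h3⟩
        refine ⟨⟨?_, ?_, h1⟩, h2, h3⟩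
        · rintro rfl
          have := Finset.disjoint_self_iff_empty d |>.mp h3
          rw [this] at hc6
          simp at hc6
        · rintro rfl
          have := Finset.disjoint_self_iff_empty d |>.mp h2
          rw [this] at hb6
          simp at hb6
      · rintro ⟨⟨-, -, h1⟩, h2⟩
        exact ⟨h1, h2⟩
    rw [h1, Finset.card_filter]
    push_cast
    rw [Finset.mul_sum]
    apply Finset.sum_congr rfl
    intro d hd
    obtain ⟨hdc, hdb, hdB⟩ : d ≠ c ∧ d ≠ b ∧ d ∈ BF B := by simpa using hd
    have h2 := inter_3_6_22 hα hB (mem_BF.mp hdB) hb hdb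
    have h3 := inter_3_6_22 hα hB (mem_BF.mp hdB) hc hdc
    simp only [hf]
    have e1 : Disjoint d b ↔ (d ∩ b).card = 0 := by
      rw [Finset.card_eq_zero, Finset.disjoint_iff_inter_eq_empty]
    have e2 : Disjoint d c ↔ (d ∩ c).card = 0 := by
      rw [Finset.card_eq_zero, Finset.disjoint_iff_inter_eq_empty]
    simp only [e1, e2]
    rcases h2 with h2 | h2 <;> rcases h3 with h3 | h3 <;> simp [h2, h3]
  have hsplit : ∑ d ∈ BF B, f d = f b + f c + ∑ d ∈ ((BF B).erase b).erase c, f d := by
    rw [← Finset.add_sum_erase _ _ hbB, ← Finset.add_sum_erase _ _ (mem_erase.mpr ⟨hbc.symm, hcB⟩)]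
    ring
  have hfb : f b = (2 - 6) * (2 - ((b ∩ c).card : ℤ)) := by
    simp only [hf, Finset.inter_self, hb6]
    norm_num
  have hfc : f c = (2 - 6) * (2 - ((b ∩ c).card : ℤ)) := by
    simp only [hf, Finset.inter_self, hc6, Finset.inter_comm c b]
    norm_num
    ring
  rw [← hrest]
  have := hsplit
  rw [hsum, hfb, hfc] at this
  linarith

theorem card_disj_disj_zero {b c : Finset α} (hb : b ∈ B) (hc : c ∈ B) (hbc : Disjoint b c) (hne : b ≠ c) :
    ((BF B).filter (fun d => Disjoint d b ∧ Disjoint d c)).card = 0 := by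
  have h := card_disj_disj hα hB hb hc hne
  rw [Finset.disjoint_iff_inter_eq_empty.mp hbc] at h
  simp only [Finset.card_empty, Nat.cast_zero, mul_zero] at h
  omega

theorem card_disj_disj_two {b c : Finset α} (hb : b ∈ B) (hc : c ∈ B) (hbc : (b ∩ c).card = 2) (hne : b ≠ c) :
    ((BF B).filter (fun d => Disjoint d b ∧ Disjoint d c)).card = 4 := by
  have h := card_disj_disj hα hB hb hc hne
  rw [hbc] at h
  push_cast at h
  omega

/-- The number of blocks through a point missing a block off the point. -/
theorem card_mem_disj {a : α} {b : Finset α} (hb : b ∈ B) (ha : a ∉ b) :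
    ((BF B).filter (fun d => a ∈ d ∧ Disjoint d b)).card = 6 := by
  classical
  have hb6 := hB.1 b hb
  have h1 : ∑ d ∈ (BF B).filter (fun d => a ∈ d), ((d ∩ b).card : ℤ) = 30 := by
    simp only [card_inter_eq_sum]
    rw [Finset.sum_comm]
    have : ∀ q ∈ b, ∑ d ∈ (BF B).filter (fun d => a ∈ d), (if q ∈ d then (1 : ℤ) else 0) = 5 := by
      intro q hq
      rw [← Finset.natCast_card_filter, Finset.filter_filter]
      have hne : a ≠ q := by
        rintro rfl
        exact ha hq
      rw [lam2_3_6_22 hα hB a q hne]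
      rfl
    rw [Finset.sum_congr rfl this, Finset.sum_const, nsmul_eq_mul, hb6]
    norm_num
  have h2 : ∑ d ∈ (BF B).filter (fun d => a ∈ d), (2 - ((d ∩ b).card : ℤ))
      = 2 * ((BF B).filter (fun d => a ∈ d ∧ Disjoint d b)).card := by
    rw [← Finset.filter_filter, Finset.card_filter]
    push_cast
    rw [Finset.mul_sum]
    apply Finset.sum_congr rfl
    intro d hd
    obtain ⟨hdB, had⟩ := mem_filter.mp hd
    have hdb : d ≠ b := by
      rintro rfl
      exact ha had
    have h3 := inter_3_6_22 hα hB (mem_BF.mp hdB) hb hdb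
    have e1 : Disjoint d b ↔ (d ∩ b).card = 0 := by
      rw [Finset.card_eq_zero, Finset.disjoint_iff_inter_eq_empty]
    simp only [e1]
    rcases h3 with h3 | h3 <;> simp [h3]
  rw [Finset.sum_sub_distrib, h1, Finset.sum_const, nsmul_eq_mul, lam1_3_6_22 hα hB] at h2
  norm_num at h2
  omega

end counts

section graph

variable [Fintype B]

theorem card_univ_filter_subtype (P : Finset α → Prop) [DecidablePred P] :
    (Finset.filter (fun c : B => P (c : Finset α)) Finset.univ).card = ((BF B).filter P).card := by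
  classical
  apply Finset.card_bij (fun (c : B) _ => (c : Finset α))
  · intro c hc
    exact mem_filter.mpr ⟨mem_BF.mpr c.2, (mem_filter.mp hc).2⟩
  · intro c _ c' _ h
    exact Subtype.ext h
  · intro d hd
    obtain ⟨h1, h2⟩ := mem_filter.mp hd
    exact ⟨⟨d, mem_BF.mp h1⟩, mem_filter.mpr ⟨mem_univ _, h2⟩, rfl⟩

theorem card_set_of_eq {V : Type*} {S : Set V} [Fintype S] (F : Finset V) (h : ∀ x, x ∈ S ↔ x ∈ F) :
    Fintype.card S = F.card :=
  Fintype.card_of_subtype F (fun x => (h x).symm)

theorem blockGraph_adj {b c : B} :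
    (blockGraph B).Adj b c ↔ b ≠ c ∧ Disjoint (b : Finset α) (c : Finset α) := by
  rw [blockGraph, SimpleGraph.fromRel_adj]
  constructor
  · rintro ⟨h1, h2 | h2⟩
    · exact ⟨h1, h2⟩
    · exact ⟨h1, h2.symm⟩
  · rintro ⟨h1, h2⟩
    exact ⟨h1, Or.inl h2⟩

theorem card_B (hα : Fintype.card α = 22) (hB : IsSteinerSystem 3 6 B) : Fintype.card B = 77 := by
  rw [Fintype.card_eq_nat_card, Nat.card_coe_set_eq, ncard_eq_card_BF, lam0_3_6_22 hα hB]

end graph

/-- The block graph is strongly regular. -/
theorem blockGraph_srg [Fintype B] (hα : Fintype.card α = 22) (hB : IsSteinerSystem 3 6 B)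
    [DecidableRel (blockGraph B).Adj] : (blockGraph B).IsSRGWith 77 16 0 4 := by
  classical
  have hne : ∀ (b c : B), Disjoint (b : Finset α) (c : Finset α) → b ≠ c := by
    rintro b c h rfl
    have h1 := Finset.disjoint_self_iff_empty _ |>.mp h
    have h2 := hB.1 b b.2
    rw [h1] at h2
    simp at h2
  refine ⟨card_B hα hB, ?_, ?_, ?_⟩
  · intro b
    rw [← SimpleGraph.card_neighborSet_eq_degree,
      card_set_of_eq (Finset.filter (fun c : B => Disjoint (b : Finset α) (c : Finset α)) Finset.univ)
        (fun x => by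
          rw [SimpleGraph.mem_neighborSet, blockGraph_adj]
          simp only [mem_filter, mem_univ, true_and]
          exact ⟨fun h => h.2, fun h => ⟨hne _ _ h, h⟩⟩),
      card_univ_filter_subtype (fun c => Disjoint (b : Finset α) c)]
    have h1 := (nI_3_6_22 hα hB b.2).1
    rw [nI] at h1
    rw [← h1]
    congr 1
    ext d
    simp only [mem_filter, Finset.card_eq_zero, Finset.disjoint_iff_inter_eq_empty]
  · intro b c h
    rw [card_set_of_eq (Finset.filter
        (fun d : B => Disjoint (d : Finset α) (b : Finset α) ∧ Disjoint (d : Finset α) (c : Finset α)) Finset.univ)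
        (fun x => by
          rw [SimpleGraph.mem_commonNeighbors, blockGraph_adj, blockGraph_adj]
          simp only [mem_filter, mem_univ, true_and]
          constructor
          · rintro ⟨⟨-, h1⟩, ⟨-, h2⟩⟩
            exact ⟨h1.symm, h2.symm⟩
          · rintro ⟨h1, h2⟩
            exact ⟨⟨(hne _ _ h1).symm, h1.symm⟩, ⟨(hne _ _ h2).symm, h2.symm⟩⟩),
      card_univ_filter_subtype (fun d => Disjoint d (b : Finset α) ∧ Disjoint d (c : Finset α))]
    obtain ⟨h1, h2⟩ := blockGraph_adj.mp h
    exact card_disj_disj_zero hα hB b.2 c.2 h2 (fun e => h1 (Subtype.ext e))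
  · intro b c hbc h
    rw [card_set_of_eq (Finset.filter
        (fun d : B => Disjoint (d : Finset α) (b : Finset α) ∧ Disjoint (d : Finset α) (c : Finset α)) Finset.univ)
        (fun x => by
          rw [SimpleGraph.mem_commonNeighbors, blockGraph_adj, blockGraph_adj]
          simp only [mem_filter, mem_univ, true_and]
          constructor
          · rintro ⟨⟨-, h1⟩, ⟨-, h2⟩⟩
            exact ⟨h1.symm, h2.symm⟩
          · rintro ⟨h1, h2⟩
            exact ⟨⟨(hne _ _ h1).symm, h1.symm⟩, ⟨(hne _ _ h2).symm, h2.symm⟩⟩),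
      card_univ_filter_subtype (fun d => Disjoint d (b : Finset α) ∧ Disjoint d (c : Finset α))]
    have hne2 : (b : Finset α) ≠ c := fun e => hbc (Subtype.ext e)
    have h3 : ((b : Finset α) ∩ c).card = 2 := by
      rcases inter_3_6_22 hα hB b.2 c.2 hne2 with h3 | h3
      · exfalso
        apply h
        rw [blockGraph_adj]
        refine ⟨hbc, ?_⟩
        rw [Finset.disjoint_iff_inter_eq_empty]
        exact Finset.card_eq_zero.mp h3
      · exact h3
    exact card_disj_disj_two hα hB b.2 c.2 h3 hne2

section pointBlock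

variable [Fintype B]

/-- Points as vertices. -/
def embL : α ↪ Option (α ⊕ B) := ⟨fun a => some (Sum.inl a), fun _ _ h => by simpa using h⟩
/-- Blocks as vertices. -/
def embR : B ↪ Option (α ⊕ B) := ⟨fun b => some (Sum.inr b), fun _ _ h => by simpa using h⟩

omit [Fintype α] in
@[simp] theorem embL_apply (a : α) : (embL (B := B)) a = some (Sum.inl a) := rfl
omit [Fintype α] in
@[simp] theorem embR_apply (b : B) : (embR (α := α)) b = some (Sum.inr b) := rfl

/-- A subset of the 100 vertices given in three parts. -/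
def mkV (o : Bool) (P : Finset α) (Q : Finset B) : Finset (Option (α ⊕ B)) :=
  (if o then {none} else ∅) ∪ P.map embL ∪ Q.map embR

theorem mem_mkV_none {o : Bool} {P : Finset α} {Q : Finset B} : none ∈ mkV o P Q ↔ o = true := by
  cases o <;> simp [mkV]

theorem mem_mkV_inl {o : Bool} {P : Finset α} {Q : Finset B} {a : α} :
    some (Sum.inl a) ∈ mkV o P Q ↔ a ∈ P := by
  cases o <;> simp [mkV]

theorem mem_mkV_inr {o : Bool} {P : Finset α} {Q : Finset B} {b : B} :
    some (Sum.inr b) ∈ mkV o P Q ↔ b ∈ Q := by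
  cases o <;> simp [mkV]

theorem card_mkV (o : Bool) (P : Finset α) (Q : Finset B) :
    (mkV o P Q).card = (if o then 1 else 0) + P.card + Q.card := by
  rw [mkV, Finset.card_union_of_disjoint, Finset.card_union_of_disjoint, Finset.card_map, Finset.card_map]
  · cases o <;> simp
  · cases o <;> simp [Finset.disjoint_left]
  · cases o <;> simp [Finset.disjoint_left]

theorem pbg_adj_none_inl (a : α) : (pointBlockGraph B).Adj none (some (Sum.inl a)) := by
  rw [pointBlockGraph, SimpleGraph.fromRel_adj]
  exact ⟨by simp, Or.inl trivial⟩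

theorem pbg_adj_none_inr (b : B) : ¬ (pointBlockGraph B).Adj none (some (Sum.inr b)) := by
  rw [pointBlockGraph, SimpleGraph.fromRel_adj]
  rintro ⟨-, h | h⟩ <;> exact h

theorem pbg_adj_inr_none (b : B) : ¬ (pointBlockGraph B).Adj (some (Sum.inr b)) none :=
  fun h => pbg_adj_none_inr b h.symm

theorem pbg_adj_inl_none (a : α) : (pointBlockGraph B).Adj (some (Sum.inl a)) none :=
  (pbg_adj_none_inl a).symm

theorem pbg_adj_inl_inl (a a' : α) : ¬ (pointBlockGraph B).Adj (some (Sum.inl a)) (some (Sum.inl a')) := by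
  rw [pointBlockGraph, SimpleGraph.fromRel_adj]
  rintro ⟨-, h | h⟩ <;> exact h

theorem pbg_adj_inl_inr (a : α) (b : B) :
    (pointBlockGraph B).Adj (some (Sum.inl a)) (some (Sum.inr b)) ↔ a ∈ (b : Finset α) := by
  rw [pointBlockGraph, SimpleGraph.fromRel_adj]
  constructor
  · rintro ⟨-, h | h⟩
    · exact h
    · exact h.elim
  · intro h
    exact ⟨by simp, Or.inl h⟩

theorem pbg_adj_inr_inr (b c : B) :
    (pointBlockGraph B).Adj (some (Sum.inr b)) (some (Sum.inr c)) ↔
      b ≠ c ∧ Disjoint (b : Finset α) (c : Finset α) := by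
  rw [pointBlockGraph, SimpleGraph.fromRel_adj]
  constructor
  · rintro ⟨h0, h | h⟩
    · exact ⟨fun e => h0 (by rw [e]), h⟩
    · exact ⟨fun e => h0 (by rw [e]), Disjoint.symm h⟩
  · rintro ⟨h1, h2⟩
    refine ⟨fun e => h1 ?_, Or.inl h2⟩
    simpa using e

theorem pbg_adj_comm {x y : Option (α ⊕ B)} : (pointBlockGraph B).Adj x y ↔ (pointBlockGraph B).Adj y x :=
  SimpleGraph.adj_comm _ _ _

/-- Filter of blocks. -/
def bF (P : Finset α → Prop) [DecidablePred P] : Finset B := Finset.filter (fun c : B => P (c : Finset α)) Finset.univ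

theorem mem_bF {P : Finset α → Prop} [DecidablePred P] {c : B} : c ∈ bF P ↔ P (c : Finset α) := by
  simp [bF]

theorem card_bF (P : Finset α → Prop) [DecidablePred P] : (bF (B := B) P).card = ((BF B).filter P).card :=
  card_univ_filter_subtype P

end pointBlock

/-- The point-block graph is strongly regular. -/
theorem pointBlockGraph_srg [Fintype B] (hα : Fintype.card α = 22) (hB : IsSteinerSystem 3 6 B)
    [DecidableRel (pointBlockGraph B).Adj] : (pointBlockGraph B).IsSRGWith 100 22 0 6 := by
  classical
  have hne : ∀ (b c : B), Disjoint (b : Finset α) (c : Finset α) → b ≠ c := by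
    rintro b c h rfl
    have h1 := Finset.disjoint_self_iff_empty _ |>.mp h
    have h2 := hB.1 b b.2
    rw [h1] at h2
    simp at h2
  have hadjBB : ∀ b c : B, (pointBlockGraph B).Adj (some (Sum.inr b)) (some (Sum.inr c)) ↔
      Disjoint (b : Finset α) (c : Finset α) := by
    intro b c
    rw [pbg_adj_inr_inr]
    exact ⟨fun h => h.2, fun h => ⟨hne _ _ h, h⟩⟩
  have hb6 : ∀ b : B, (b : Finset α).card = 6 := fun b => hB.1 b b.2
  have hdisj : ∀ b : B, ((BF B).filter (fun c => Disjoint (b : Finset α) c)).card = 16 := by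
    intro b
    have h1 := (nI_3_6_22 hα hB b.2).1
    rw [nI] at h1
    rw [← h1]
    congr 1
    ext d
    simp only [mem_filter, Finset.card_eq_zero, Finset.disjoint_iff_inter_eq_empty]
  refine ⟨?_, ?_, ?_, ?_⟩
  · simp only [Fintype.card_option, Fintype.card_sum, hα, card_B hα hB]
  · rintro (_ | a | b)
    · rw [← SimpleGraph.card_neighborSet_eq_degree,
        card_set_of_eq (mkV false Finset.univ ∅) (fun x => by
          rw [SimpleGraph.mem_neighborSet]
          rcases x with _ | a | b
          · simp [mem_mkV_none]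
          · simp [mem_mkV_inl, pbg_adj_none_inl]
          · simp [mem_mkV_inr, pbg_adj_none_inr]),
        card_mkV]
      simp [hα]
    · rw [← SimpleGraph.card_neighborSet_eq_degree,
        card_set_of_eq (mkV true ∅ (bF (fun d => a ∈ d))) (fun x => by
          rw [SimpleGraph.mem_neighborSet]
          rcases x with _ | a' | b
          · simp [mem_mkV_none, pbg_adj_comm (x := some (Sum.inl a)), pbg_adj_none_inl]
          · simp [mem_mkV_inl, pbg_adj_inl_inl]
          · simp [mem_mkV_inr, pbg_adj_inl_inr, mem_bF]),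
        card_mkV, card_bF, lam1_3_6_22 hα hB]
      simp
    · rw [← SimpleGraph.card_neighborSet_eq_degree,
        card_set_of_eq (mkV false (b : Finset α) (bF (fun d => Disjoint (b : Finset α) d))) (fun x => by
          rw [SimpleGraph.mem_neighborSet]
          rcases x with _ | a | c
          · simp [mem_mkV_none, pbg_adj_inr_none]
          · simp [mem_mkV_inl, pbg_adj_comm (y := some (Sum.inl a)), pbg_adj_inl_inr]
          · simp [mem_mkV_inr, hadjBB, mem_bF]),
        card_mkV, card_bF, hb6, hdisj]
      simp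
  · -- adjacent pairs have no common neighbour
    intro v w h
    rw [Fintype.card_eq_zero_iff]
    refine ⟨?_⟩
    rintro ⟨x, hx⟩
    rw [SimpleGraph.mem_commonNeighbors] at hx
    obtain ⟨h1, h2⟩ := hx
    rcases v with _ | a | b <;> rcases w with _ | a' | c <;> rcases x with _ | p | d
    all_goals first
      | exact (SimpleGraph.irrefl _ h)
      | exact (SimpleGraph.irrefl _ h1)
      | exact (SimpleGraph.irrefl _ h2)
      | exact (pbg_adj_inl_inl _ _ h)
      | exact (pbg_adj_inl_inl _ _ h1)
      | exact (pbg_adj_inl_inl _ _ h2)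
      | exact (pbg_adj_none_inr _ h)
      | exact (pbg_adj_none_inr _ h1)
      | exact (pbg_adj_none_inr _ h2)
      | exact (pbg_adj_none_inr _ h.symm)
      | exact (pbg_adj_none_inr _ h1.symm)
      | exact (pbg_adj_none_inr _ h2.symm)
      | skip
    · -- a ~ c, a ~ d, c ~ d
      have e1 := (pbg_adj_inl_inr _ _).mp h
      have e2 := (pbg_adj_inl_inr _ _).mp h1
      have e3 := (hadjBB _ _).mp h2
      exact Finset.disjoint_left.mp e3 e1 e2
    · have e1 := (pbg_adj_inl_inr _ _).mp h.symm
      have e2 := (pbg_adj_inl_inr _ _).mp h2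
      have e3 := (hadjBB _ _).mp h1
      exact Finset.disjoint_left.mp e3 e1 e2
    · have e1 := (hadjBB _ _).mp h
      have e2 := (pbg_adj_inl_inr _ _).mp h1.symm
      have e3 := (pbg_adj_inl_inr _ _).mp h2.symm
      exact Finset.disjoint_left.mp e1 e2 e3
    · have e1 := (hadjBB _ _).mp h
      have e2 := (hadjBB _ _).mp h1
      have e3 := (hadjBB _ _).mp h2
      have hd : ((BF B).filter (fun d => Disjoint d (b : Finset α) ∧ Disjoint d (c : Finset α))).card = 0 :=
        card_disj_disj_zero hα hB b.2 c.2 e1 (fun e => hne _ _ e1 (Subtype.ext e))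
      rw [Finset.card_eq_zero, Finset.filter_eq_empty_iff] at hd
      exact hd (mem_BF.mpr d.2) ⟨e2.symm, e3.symm⟩
  · -- non-adjacent pairs have six common neighbours
    rintro (_ | a | b) (_ | a' | c) hvw hadj
    · exact (hvw rfl).elim
    · exact (hadj (pbg_adj_none_inl _)).elim
    · -- ∞ and a block
      rw [card_set_of_eq (mkV false (c : Finset α) ∅) (fun x => by
          rw [SimpleGraph.mem_commonNeighbors]
          rcases x with _ | a | b
          · simp [mem_mkV_none]
          · simp [mem_mkV_inl, pbg_adj_none_inl, pbg_adj_inl_none, pbg_adj_comm (y := some (Sum.inl a)),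
              pbg_adj_inl_inr]
          · simp [mem_mkV_inr, pbg_adj_none_inr]),
        card_mkV, hb6]
      simp
    · exact (hadj (pbg_adj_none_inl _).symm).elim
    · -- two points
      have hne2 : a ≠ a' := fun e => hvw (by rw [e])
      rw [card_set_of_eq (mkV true ∅ (bF (fun d => a ∈ d ∧ a' ∈ d))) (fun x => by
          rw [SimpleGraph.mem_commonNeighbors]
          rcases x with _ | p | d
          · simp [mem_mkV_none, pbg_adj_comm (x := some (Sum.inl a)), pbg_adj_comm (x := some (Sum.inl a')),
              pbg_adj_none_inl]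
          · simp [mem_mkV_inl, pbg_adj_inl_inl]
          · simp [mem_mkV_inr, pbg_adj_inl_inr, mem_bF]),
        card_mkV, card_bF, lam2_3_6_22 hα hB a a' hne2]
      simp
    · -- a point and a block not through it
      have ha : a ∉ (c : Finset α) := fun h => hadj ((pbg_adj_inl_inr _ _).mpr h)
      rw [card_set_of_eq (mkV false ∅ (bF (fun d => a ∈ d ∧ Disjoint d (c : Finset α)))) (fun x => by
          rw [SimpleGraph.mem_commonNeighbors]
          rcases x with _ | p | d
          · simp [mem_mkV_none, pbg_adj_none_inr, pbg_adj_comm (x := some (Sum.inr c))]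
          · simp [mem_mkV_inl, pbg_adj_inl_inl]
          · simp [mem_mkV_inr, pbg_adj_inl_inr, mem_bF, hadjBB, disjoint_comm]),
        card_mkV, card_bF, card_mem_disj hα hB c.2 ha]
      simp
    · -- block and ∞
      rw [card_set_of_eq (mkV false (b : Finset α) ∅) (fun x => by
          rw [SimpleGraph.mem_commonNeighbors]
          rcases x with _ | a | c
          · simp [mem_mkV_none]
          · simp [mem_mkV_inl, pbg_adj_none_inl, pbg_adj_inl_none, pbg_adj_comm (y := some (Sum.inl a)),
              pbg_adj_inl_inr]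
          · simp [mem_mkV_inr, pbg_adj_none_inr]),
        card_mkV, hb6]
      simp
    · -- a block and a point not on it
      have ha : a' ∉ (b : Finset α) := fun h => hadj ((pbg_adj_inl_inr _ _).mpr h).symm
      rw [card_set_of_eq (mkV false ∅ (bF (fun d => a' ∈ d ∧ Disjoint d (b : Finset α)))) (fun x => by
          rw [SimpleGraph.mem_commonNeighbors]
          rcases x with _ | p | d
          · simp [mem_mkV_none, pbg_adj_none_inr, pbg_adj_comm (x := some (Sum.inr b))]
          · simp [mem_mkV_inl, pbg_adj_inl_inl]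
          · simp [mem_mkV_inr, pbg_adj_inl_inr, mem_bF, hadjBB, disjoint_comm, and_comm]),
        card_mkV, card_bF, card_mem_disj hα hB b.2 ha]
      simp
    · -- two blocks meeting in two points
      have hne2 : (b : Finset α) ≠ c := fun e => hvw (by rw [Subtype.ext e])
      have h3 : ((b : Finset α) ∩ c).card = 2 := by
        rcases inter_3_6_22 hα hB b.2 c.2 hne2 with h3 | h3
        · exfalso
          apply hadj
          rw [hadjBB, Finset.disjoint_iff_inter_eq_empty]
          exact Finset.card_eq_zero.mp h3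
        · exact h3
      rw [card_set_of_eq (mkV false ((b : Finset α) ∩ c) (bF (fun d => Disjoint d (b : Finset α) ∧ Disjoint d (c : Finset α))))
          (fun x => by
          rw [SimpleGraph.mem_commonNeighbors]
          rcases x with _ | p | d
          · simp [mem_mkV_none, pbg_adj_none_inr, pbg_adj_comm (x := some (Sum.inr b))]
          · simp [mem_mkV_inl, pbg_adj_comm (x := some (Sum.inr b)), pbg_adj_comm (x := some (Sum.inr c)),
              pbg_adj_inl_inr]
          · simp [mem_mkV_inr, mem_bF, hadjBB, disjoint_comm]),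
        card_mkV, card_bF, h3, card_disj_disj_two hα hB b.2 c.2 h3 hne2]
      simp

end Cfsg.Agent.Lib.Golay.Steiner
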